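import Cfsg.Agent.SolvSignalizer.TwoPrime.Main
import Cfsg.Agent.SolvSignalizer.CommutatorClosure

/-!
Two primes: maximal members with one core, without colours and without exceptions at the prime `2`.

* `pCoreIn_theta_le_qmember`: every maximal `s`-member contains every `O_s (θ d)`;
* `completes_of_core_centralized`: an element of `A` centralising the core of a maximal member
  with one core gives completeness;
* `completes_of_mixed_cores`: if the members with only an `s`-core, `s` odd, give one member and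
  that one contains some `θ e`, then completeness. No hypothesis on the other prime.
-/

set_option autoImplicit false
set_option linter.unusedSectionVars false

namespace CfsgLib.SolvSignalizer

open Cfsg CfsgLib.Coprime CfsgLib.Signalizer
open CfsgLib.CharPClimb (pCoreIn pCoreIn_le isPGroup_pCoreIn le_pCoreIn
  normalizer_le_normalizer_pCoreIn)
open scoped commutatorElement

variable {G : Type*} [Group G] [Finite G] {p : ℕ} [Fact p.Prime] {A : Subgroup G}
  {θ : G → Subgroup G}

theorem pCoreIn_theta_le_qmember (h : Setup p A θ) {s : ℕ} [Fact s.Prime] (hsp : s ≠ p)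
    {S : Subgroup G} (hS : S ∈ signalizerFamily p A θ) (hSs : IsPGroup s S)
    (hSmax : ∀ R ∈ signalizerFamily p A θ, IsPGroup s R → S ≤ R → R = S)
    {d : G} (hd : d ∈ A) (hd1 : d ≠ 1) : pCoreIn s (θ d) ≤ S := by
  have hθd := theta_mem_family h.functor hd hd1
  obtain ⟨k, hk, hle⟩ := exists_conj_le h hsp hS hSs hSmax (pCoreIn_mem_family hθd s)
    (isPGroup_pCoreIn (θ d))
  intro x hx
  obtain ⟨y, hy, hyx⟩ := hle (conj_mem_of_le_normalizer (le_normalizer_pCoreIn_self s (θ d))
    (mem_signalizerInf.mp hk d hd hd1) hx)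
  exact (MulAut.conj k).injective hyx ▸ hy

/-- An element of `A` centralising the only core of a maximal member gives completeness. -/
theorem completes_of_core_centralized (h : Setup p A θ) {q s : ℕ} [Fact q.Prime] [Fact s.Prime]
    (hpq : p ≠ q) (hps : p ≠ s) (h2 : TwoPrimes p A θ q s)
    {H : Subgroup G} (hH : IsMaxMember p A θ H) (hqH : pCoreIn q H = ⊥)
    {e : G} (he : e ∈ A) (he1 : e ≠ 1)
    (hOe : pCoreIn s H ≤ Subgroup.centralizer ({e} : Set G)) : Completes p A θ := by
  by_cases hO1 : pCoreIn s H = ⊥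
  · have hH1 := le_bot_of_no_core h h2 hH.1 hqH hO1
    exact ⟨H, hH.1, fun a ha ha1 =>
      (hH.2 _ (theta_mem_family h.functor ha ha1) (hH1 ▸ bot_le)).le⟩
  set O := pCoreIn s H with hO
  set Z := Subgroup.zpowers e with hZ
  have hZA : Z ≤ A := Subgroup.zpowers_le_of_mem he
  have hOZ : O ≤ Subgroup.centralizer (Z : Set G) := by
    refine Subgroup.le_centralizer_iff.mp (Subgroup.zpowers_le_of_mem ?_)
    exact Subgroup.mem_centralizer_iff.mpr fun x hx =>
      (Subgroup.mem_centralizer_iff.mp (hOe hx) e rfl).symm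
  obtain ⟨T, hT, hTs, hOT, hTmax⟩ :=
    exists_max_family (pCoreIn_mem_family hH.1 s) (isPGroup_pCoreIn H)
  have hTZ : T ≤ Subgroup.centralizer (Z : Set G) := by
    refine le_centralizer_of_fixed (isPGroup_pCoreIn H) hTs (hOT.trans Subgroup.le_normalizer)
      (hZA.trans (family_le_normalizer hT)) (Subgroup.le_centralizer_iff.mp hOZ) ?_ ?_
    · rw [Nat.card_zpowers, orderOf_eq_prime (h.elem.2 e he) he1]
      exact (Nat.coprime_primes Fact.out Fact.out).mpr hps
    · refine le_trans ?_ hOZ
      refine le_trans (le_inf ?_ inf_le_right) (inf_centralizer_pCoreIn_le h2.swap hH.1 hqH)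
      exact le_of_normalizes_pCoreIn h hH hO1 (mem_family_of_le hT inf_le_left
        (le_normalizer_inf' (family_le_normalizer hT)
          (le_normalizer_centralizer (family_le_normalizer (pCoreIn_mem_family hH.1 s)))))
        (inf_le_right.trans (Subgroup.centralizer_le_normalizer _))
  obtain ⟨Q, hQ, hQq, -, hQmax⟩ := exists_max_family (q := q)
    (bot_mem_family (p := p) (A := A) (θ := θ)) IsPGroup.of_bot
  refine completes_of_centralizes_qmember h (Ne.symm hps) hT hTs hTmax he he1
    (hTZ.trans (Subgroup.centralizer_le (Set.singleton_subset_iff.mpr (Subgroup.mem_zpowers e))))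
    hQ fun d hd hd1 => ?_
  exact (uCoreOf_le_pCoreIn h2.swap (theta_mem_family h.functor hd hd1)).trans
    (pCoreIn_theta_le_qmember h (Ne.symm hpq) hQ hQq hQmax hd hd1)

/-- One core each, and a member with only an `s`-core, `s` odd, that is the only one. -/
theorem completes_of_mixed_cores (h : Setup p A θ) {q s : ℕ} [Fact q.Prime] [Fact s.Prime]
    (hs2 : s ≠ 2) (hpq : p ≠ q) (hps : p ≠ s) (hqs : q ≠ s) (h2 : TwoPrimes p A θ q s)
    (hone : ∀ H, IsMaxMember p A θ H → ∀ b ∈ A, b ≠ 1 → θ b ≤ H →
      pCoreIn q H = ⊥ ∨ pCoreIn s H = ⊥)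
    {M : Subgroup G} (hM : IsMaxMember p A θ M) (hqM : pCoreIn q M = ⊥)
    (huniq : ∀ H, IsMaxMember p A θ H → pCoreIn q H = ⊥ → ∀ b ∈ A, b ≠ 1 → θ b ≤ H → θ b ≤ M)
    {e : G} (he : e ∈ A) (he1 : e ≠ 1) (heM : θ e ≤ M) : Completes p A θ := by
  by_contra hno
  refine hno (completes_of_lines h.elem h.card_ge h.functor hM.1 fun L hL hLc hesc => absurd ?_ hno)
  set O := pCoreIn s M with hO
  have hOm := pCoreIn_mem_family hM.1 s
  refine completes_of_core_centralized h hpq hps h2 hM hqM he he1 ?_
  refine le_of_lines' h.elem h.card_ge (family_le_normalizer hOm)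
    (family_coprime h.elem hOm.2.1) fun D hD hDc => ?_
  obtain ⟨x, hxD, hxL, hx1⟩ := exists_mem_lines h.elem h.card hD hL hDc hLc
  obtain ⟨H, hH, hxH⟩ := exists_isMaxMember (theta_mem_family h.functor (hD hxD) hx1)
  have hsH : pCoreIn s H = ⊥ := (hone H hH x (hD hxD) hx1 hxH).resolve_left fun hq0 =>
    hesc x hxL hx1 (huniq H hH hq0 x (hD hxD) hx1 hxH)
  set U := O ⊓ H with hU
  set P := pCoreIn q H with hP
  have hUs : IsPGroup s U := (isPGroup_pCoreIn M).to_le inf_le_left
  have hUP : U ≤ Subgroup.normalizer (P : Set G) :=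
    inf_le_right.trans (le_normalizer_pCoreIn_self q H)
  have hUm : U ∈ signalizerFamily p A θ := mem_family_of_le hH.1 inf_le_right
    (le_normalizer_inf' (family_le_normalizer hOm) (family_le_normalizer hH.1))
  have hfix : P ⊓ Subgroup.centralizer ({e} : Set G) ≤ Subgroup.centralizer (U : Set G) := by
    rw [← Subgroup.commutator_eq_bot_iff_le_centralizer, eq_bot_iff,
      ← (IsPGroup.disjoint_of_ne q s hqs P U (isPGroup_pCoreIn H) hUs).eq_bot]
    refine le_inf ((Subgroup.commutator_mono inf_le_left le_rfl).trans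
      (commutator_le_of_le_normalizer hUP)) ?_
    rw [Subgroup.commutator_comm]
    exact commutator_le_of_le_normalizer (le_normalizer_inf'
      ((((inf_le_inf_right _ (pCoreIn_le H)).trans (hH.1.2.2.2 e he he1)).trans heM).trans
        (le_normalizer_pCoreIn_self s M))
      ((inf_le_left.trans (pCoreIn_le H)).trans Subgroup.le_normalizer))
  have hW := commutator_le_centralizer_of_fixed hs2 hps hpq (Ne.symm hqs) (h.elem.2 e he)
    (isPGroup_pCoreIn H) hUs (family_le_normalizer (pCoreIn_mem_family hH.1 q) he) hUP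
    (family_le_normalizer hUm he) hfix
  have hWU : ⁅U, Subgroup.zpowers e⁆ ≤ U :=
    commutator_le_of_le_normalizer ((Subgroup.zpowers_le_of_mem he).trans (family_le_normalizer hUm))
  have hWbot : ⁅U, Subgroup.zpowers e⁆ = ⊥ := by
    rw [eq_bot_iff, ← (IsPGroup.disjoint_of_ne s q (Ne.symm hqs) U P hUs (isPGroup_pCoreIn H)).eq_bot]
    exact le_inf hWU ((le_inf (hWU.trans inf_le_right) hW).trans
      (inf_centralizer_pCoreIn_le h2 hH.1 hsH))
  refine le_trans (le_inf inf_le_left ?_)
    ((Subgroup.commutator_eq_bot_iff_le_centralizer.mp hWbot).trans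
      (Subgroup.centralizer_le (Set.singleton_subset_iff.mpr (Subgroup.mem_zpowers e))))
  exact ((inf_le_inf_left O (Subgroup.centralizer_le (Set.singleton_subset_iff.mpr hxD))).trans
    (hOm.2.2.2 x (hD hxD) hx1)).trans hxH

end CfsgLib.SolvSignalizer
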